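import Mathlib
import Cfsg.Agent.Lib.Rank3.Aut
import Cfsg.Agent.Lib.Comput.NormAb

/-!
# Invariant subsets of a subgroup containing known elements
-/

set_option autoImplicit false

namespace CfsgLib.SubCl

open CfsgLib.Comput CfsgLib.Rank3 MulAction Subgroup
open scoped Pointwise

variable {G Ω : Type*} [Group G] [MulAction G Ω] {g : ℕ → G} {n : ℕ} {pt : ℕ → Ω} {step : ℕ → ℕ → ℕ}

/-- letters given by products of words -/
noncomputable def stepL (step : ℕ → ℕ → ℕ) (Y : List (List ℕ)) (m x : ℕ) : ℕ := actL step (nth [] Y m) x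

/-- letters given by products of words -/
noncomputable def gL (g : ℕ → G) (Y : List (List ℕ)) (m : ℕ) : G := evL g (nth [] Y m)

theorem sm_lists (M : SM g n pt step) (Y : List (List ℕ)) : SM (gL g Y) n pt (stepL step Y) :=
  ⟨M.inj, M.small, fun _ S => M.sem_actL _ S⟩

/-- the elements lie in `K` -/
def Sub (g : ℕ → G) (Y : List (List ℕ)) (K : Subgroup G) : Prop := ∀ y ∈ Y, evL g y ∈ K

theorem Sub.ev {Y : List (List ℕ)} {K : Subgroup G} (h : Sub g Y K) (w : ℕ) : ev (gL g Y) w ∈ K :=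
  ev_mem_of_all (fun m => (nth_mem_or [] Y m).elim (h _) fun e => by
    show evL g (nth [] Y m) ∈ K
    rw [e]; exact one_mem _) w

/-- first argument -/
def fstN (a _b : ℕ) : ℕ := a

/-- evaluation to a literal -/
noncomputable def frc {β : Type} (x : ℕ) (k : ℕ → β) : β :=
  Nat.rec (motive := fun _ => β) (k 0) (fun m _ => k m) (Nat.succ x)

/-- evaluation; the terms seen by the kernel have well spread hash codes also for sparse bit-sets -/
noncomputable def fs {β : Type} (x : ℕ) (k : ℕ → β) : β :=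
  frc x fun y => frc (Nat.mod y 1000000000000000003) fun s => k (fstN y s)

theorem fs_eq {β : Type} (x : ℕ) (k : ℕ → β) : fs x k = k x := rfl

/-- one round of growth -/
noncomputable def growK (step : ℕ → ℕ → ℕ) (ws : List ℕ) (k : ℕ → ℕ) : ℕ → ℕ :=
  List.rec (motive := fun _ => ℕ → ℕ) k (fun w _ ih S => fs (Nat.lor S (act step w S)) ih) ws

theorem growK_eq (step : ℕ → ℕ → ℕ) (ws : List ℕ) (k : ℕ → ℕ) (S : ℕ) : growK step ws k S = k (growOnce step ws S) := by
  induction ws generalizing S with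
  | nil => rfl
  | cons w ws ih => exact (ih _).trans (congrArg k (force_eq _ (growOnce step ws)).symm)

/-- growth until nothing changes -/
noncomputable def growS (step : ℕ → ℕ → ℕ) (ws : List ℕ) (f : ℕ) : ℕ → ℕ :=
  Nat.rec (motive := fun _ => ℕ → ℕ) (fun S => S)
    (fun _ ih S => growK step ws (fun S' => Bool.rec (ih S') S' (Nat.beq S' S)) S) f

theorem growS_spec (M : SM g n pt step) {ws : List ℕ} {Y : Set Ω} (hY : ∀ w ∈ ws, ∀ y ∈ Y, ev g w • y ∈ Y) (f : ℕ)
    {S : ℕ} (hS : sem n pt S ⊆ Y) : sem n pt S ⊆ sem n pt (growS step ws f S) ∧ sem n pt (growS step ws f S) ⊆ Y := by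
  induction f generalizing S with
  | zero => exact ⟨subset_rfl, hS⟩
  | succ f ih =>
    rw [show growS step ws (f + 1) S = Bool.rec (growS step ws f (growOnce step ws S)) (growOnce step ws S)
      (Nat.beq (growOnce step ws S) S) from growK_eq step ws (fun S' =>
        @Bool.rec (fun _ => ℕ) (growS step ws f S') S' (Nat.beq S' S)) S]
    have h1 := M.growOnce_subset hY hS
    have h2 := subset_growOnce n pt step ws S
    cases Nat.beq (growOnce step ws S) S with
    | true => exact ⟨h2, h1⟩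
    | false => exact ⟨h2.trans (ih h1).1, (ih h1).2⟩

/-- the saturation of a set under the listed elements -/
noncomputable def orb (step : ℕ → ℕ → ℕ) (Y : List (List ℕ)) (S : ℕ) : ℕ :=
  fs S (growS (stepL step Y) (List.range' 1 Y.length) 200)

theorem orb_spec (M : SM g n pt step) {Y : List (List ℕ)} {K : Subgroup G} (h : Sub g Y K) (S : ℕ) :
    sem n pt S ⊆ sem n pt (orb step Y S) ∧ ∀ x ∈ sem n pt (orb step Y S), ∃ k ∈ K, ∃ y ∈ sem n pt S, k • y = x :=
  growS_spec (sm_lists M Y) (ws := List.range' 1 Y.length) (Y := {x | ∃ k ∈ K, ∃ y ∈ sem n pt S, k • y = x})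
    (fun w _ _ ⟨_, hk, y, hy, e⟩ => ⟨_, K.mul_mem (h.ev w) hk, y, hy, e ▸ mul_smul _ _ _⟩) 200
    fun y hy => ⟨1, K.one_mem, y, hy, one_smul _ _⟩

/-- invariant set -/
def KInv (K : Subgroup G) (Z : Set Ω) : Prop := ∀ k ∈ K, ∀ x ∈ Z, k • x ∈ Z

theorem kInv_orbit (K : Subgroup G) (x : Ω) : KInv K (orbit K x) := fun k hk _ hy =>
  mapsTo_smul_orbit (⟨k, hk⟩ : K) x hy

/-- every invariant set contains `S` or is disjoint from it -/
def Conn (K : Subgroup G) (S : Set Ω) : Prop := ∀ Z, KInv K Z → ∀ x ∈ S, x ∈ Z → S ⊆ Z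

theorem conn_orb (M : SM g n pt step) {Y : List (List ℕ)} {K : Subgroup G} (h : Sub g Y K) {b : ℕ}
    (hb : le1 b = true) (R : ℕ) : Conn K (sem n pt (Nat.land R (orb step Y b))) := fun Z hZ x hx h1 y hy => by
  obtain ⟨k, hk, _, ⟨i, -, hi, rfl⟩, rfl⟩ := (orb_spec M h b).2 x ((sem_land M _ _).le hx).2
  obtain ⟨k', hk', _, ⟨j, -, hj, rfl⟩, rfl⟩ := (orb_spec M h b).2 y ((sem_land M _ _).le hy).2
  have := hZ _ (K.mul_mem hk' (K.inv_mem hk)) _ h1
  rwa [mul_smul, inv_smul_smul, le1_sound hb hi hj] at this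

/-- a partition into connected pieces of known size -/
def Part (n : ℕ) (pt : ℕ → Ω) (K : Subgroup G) : List (ℕ × ℕ) → Set Ω → Prop
  | [], S => S = ∅
  | o :: l, S => Conn K (sem n pt o.1) ∧ sem n pt o.1 ⊆ S ∧ (sem n pt o.1).ncard = o.2 ∧ Part n pt K l (S \ sem n pt o.1)

/-- computation of a partition -/
noncomputable def parts (step : ℕ → ℕ → ℕ) (n : ℕ) (Y : List (List ℕ)) (f : ℕ) : ℕ → (List (ℕ × ℕ) → Bool) → Bool :=
  Nat.rec (motive := fun _ => ℕ → (List (ℕ × ℕ) → Bool) → Bool) (fun _ _ => false)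
    (fun _ ih R k => Bool.rec (force (Nat.xor R (Nat.land R (Nat.sub R 1))) fun b => band (le1 b)
      (force (Nat.land R (orb step Y b)) fun O => force (pop n O) fun s => force (Nat.xor R O) fun R' =>
        ih R' fun l => k ((O, s) :: l))) (k []) (Nat.beq R 0)) f

theorem sem_rest (M : SM g n pt step) (R X : ℕ) :
    sem n pt (Nat.xor R (Nat.land R X)) = sem n pt R \ sem n pt (Nat.land R X) := by
  rw [sem_diff M, show Nat.land R X = R &&& X from rfl, sem_land M, Set.sdiff_self_inter]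

theorem parts_sound (M : SM g n pt step) {Y : List (List ℕ)} {K : Subgroup G} (h : Sub g Y K) {f R : ℕ}
    {k : List (ℕ × ℕ) → Bool} (hk : parts step n Y f R k = true) : ∃ l, Part n pt K l (sem n pt R) ∧ k l = true := by
  induction f generalizing R k with
  | zero => cases hk
  | succ f ih =>
    change Bool.rec (force _ _) (k []) (Nat.beq R 0) = true at hk
    cases hb : Nat.beq R 0 with
    | true => rw [hb] at hk; exact ⟨[], by rw [Nat.eq_of_beq_eq_true hb]; exact sem_zero _ _, hk⟩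
    | false =>
      rw [hb] at hk
      change force _ _ = true at hk
      rw [force_eq, force_eq, force_eq, force_eq, band_eq_true] at hk
      obtain ⟨l, h1, h2⟩ := ih hk.2
      exact ⟨_, show Part n pt K ((_, _) :: l) _ from
        ⟨conn_orb M h hk.1 R, fun _ hx => ((sem_land M _ _).le hx).1, M.ncard_sem _, sem_rest M R _ ▸ h1⟩, h2⟩

theorem Part.split {K : Subgroup G} {O : Set Ω} (h : Conn K O) {S Z : Set Ω} (hO : O ⊆ S) (hS : S.Finite)
    (hZ : KInv K Z) : Z ∩ S = Z ∩ (S \ O) ∨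
      Z ∩ S = O ∪ Z ∩ (S \ O) ∧ (Z ∩ S).ncard = O.ncard + (Z ∩ (S \ O)).ncard := by
  by_cases e : O ⊆ Z
  · have : Z ∩ S = O ∪ Z ∩ (S \ O) := Set.ext fun x => ⟨fun hx => (em (x ∈ O)).imp_right fun h => ⟨hx.1, hx.2, h⟩,
      fun hx => hx.elim (fun h => ⟨e h, hO h⟩) fun h => ⟨h.1, h.2.1⟩⟩
    exact Or.inr ⟨this, by rw [this, Set.ncard_union_eq (Set.disjoint_left.2 fun _ h h' => h'.2.2 h) (hS.subset hO)
      (hS.subset fun _ h => h.2.1)]⟩
  · exact Or.inl (Set.ext fun x => ⟨fun hx => ⟨hx.1, hx.2, fun h1 => e (h Z hZ x h1 hx.1)⟩, fun hx => ⟨hx.1, hx.2.1⟩⟩)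

/-- the subset sums -/
noncomputable def dp (l : List (ℕ × ℕ)) : ℕ → ℕ :=
  List.rec (motive := fun _ => ℕ → ℕ) (fun a => a) (fun o _ ih a => force (Nat.lor a (Nat.shiftLeft a o.2)) ih) l

theorem dp_sound {K : Subgroup G} {l : List (ℕ × ℕ)} {S Z : Set Ω} (h : Part n pt K l S) (hS : S.Finite)
    (hZ : KInv K Z) {a j : ℕ} (ha : a.testBit j = true) : (dp l a).testBit (j + (Z ∩ S).ncard) = true := by
  induction l generalizing S a j with
  | nil => rwa [show S = ∅ from h, Set.inter_empty, Set.ncard_empty]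
  | cons o l ih =>
    rw [show dp (o :: l) a = dp l (a ||| a <<< o.2) from force_eq _ _]
    rcases Part.split h.1 h.2.1 hS hZ with e | e
    · exact e ▸ ih h.2.2.2 hS.sdiff (by rw [Nat.testBit_or, ha]; rfl)
    · rw [e.2, ← add_assoc, h.2.2.1]
      exact ih h.2.2.2 hS.sdiff (by simp [Nat.testBit_shiftLeft, ha])

/-- a test for all the unions of size at most `B` -/
noncomputable def allU (p : ℕ → ℕ → Bool) (B : ℕ) (l : List (ℕ × ℕ)) : ℕ → ℕ → Bool :=
  List.rec (motive := fun _ => ℕ → ℕ → Bool) p (fun o _ ih U s => band (ih U s)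
    (force (Nat.add s o.2) fun s' => Bool.rec true (force (Nat.lor U o.1) fun U' => ih U' s') (Nat.ble s' B))) l

theorem allU_sound {K : Subgroup G} {l : List (ℕ × ℕ)} {S Z : Set Ω} (h : Part n pt K l S) (hS : S.Finite)
    (hZ : KInv K Z) {p : ℕ → ℕ → Bool} {B U s : ℕ} (hB : s + (Z ∩ S).ncard ≤ B) (ha : allU p B l U s = true) :
    ∃ U', sem n pt U' = sem n pt U ∪ Z ∩ S ∧ p U' (s + (Z ∩ S).ncard) = true := by
  induction l generalizing S U s with
  | nil => exact ⟨U, by simp [show S = ∅ from h], by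
      rw [show S = ∅ from h, Set.inter_empty, Set.ncard_empty]; exact ha⟩
  | cons o l ih =>
    obtain ⟨h1, h2⟩ := band_eq_true.1 ha
    rcases Part.split h.1 h.2.1 hS hZ with e | e
    · rw [e] at hB ⊢
      exact ih h.2.2.2 hS.sdiff hB h1
    · rw [e.2, ← add_assoc, h.2.2.1] at hB ⊢
      rw [force_eq, Nat.ble_eq_true_of_le (show Nat.add s o.2 ≤ B from le_of_add_le_left hB)] at h2
      obtain ⟨U', h3, h4⟩ := ih h.2.2.2 hS.sdiff hB
        ((force_eq (Nat.lor U o.1) fun U' => allU p B l U' _).symm.trans h2)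
      exact ⟨U', by rw [h3, e.1, ← Set.union_assoc, ← sem_lor]; rfl, h4⟩

/-- every invariant subset of `R` of size at most `B` passes the test -/
theorem exists_of_allU (M : SM g n pt step) {Y : List (List ℕ)} {K : Subgroup G} (h : Sub g Y K) {R B : ℕ}
    {p : ℕ → ℕ → Bool} (hk : parts step n Y 100 R (fun l => allU p B l 0 0) = true) {Z : Set Ω} (hZ : KInv K Z)
    (hR : Z ⊆ sem n pt R) (hB : Z.ncard ≤ B) : ∃ U, sem n pt U = Z ∧ p U Z.ncard = true := by
  obtain ⟨l, h1, h2⟩ := parts_sound M h hk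
  have := allU_sound h1 (sem_finite _ _ _) hZ (by rwa [Set.inter_eq_left.2 hR, zero_add]) h2
  rwa [Set.inter_eq_left.2 hR, zero_add, sem_zero, Set.empty_union] at this

/-! ### Sylow subgroups -/

/-- a polycyclic series with factors of order `p` -/
noncomputable def pcOK (step : ℕ → ℕ → ℕ) (x0 p : ℕ) (ss : List ℕ) : List (List (List ℕ) × List ℕ) → Bool :=
  List.rec (motive := fun _ => List (List (List ℕ) × List ℕ) → Bool) (fun _ => true)
    (fun s l ih c => List.rec false (fun e c _ => band (band (normOK step x0 [s] l [e.1])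
      (band (allL (fun u => decide (u ∈ l)) e.2) (eqChk step x0 (List.replicate p s, e.2)))) (ih c)) c) ss

theorem isPGroup_of_pc [Finite G] {x0 p : ℕ} (V : WM g step x0) {ss : List ℕ} {c : List (List (List ℕ) × List ℕ)}
    (h : pcOK step x0 p ss c = true) : IsPGroup p (cl g ss) := by
  induction ss generalizing c with
  | nil => rw [cl_nil]; exact IsPGroup.of_bot
  | cons s l ih =>
    cases c with
    | nil => cases h
    | cons e c =>
      obtain ⟨h1, h2⟩ := band_eq_true.1 h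
      obtain ⟨h1, h3⟩ := band_eq_true.1 h1
      obtain ⟨h3, h4⟩ := band_eq_true.1 h3
      have h5 : ev g s ^ p ∈ cl g l := by
        rw [← evL_replicate, show evL g (List.replicate p s) = evL g e.2 from V.holds h4]
        exact evL_mem fun w hw => ev_mem_cl g (of_decide_eq_true (allL_sound h3 w hw))
      have h6 : IsPGroup p (zpowers (ev g s)) := by
        obtain ⟨k, hk⟩ := ih h2 ⟨_, h5⟩
        rintro ⟨_, j, rfl⟩
        refine ⟨k + 1, Subtype.ext ?_⟩
        change (ev g s ^ j) ^ p ^ (k + 1) = 1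
        rw [← zpow_natCast, zpow_comm, zpow_natCast, pow_succ', pow_mul,
          show (ev g s ^ p) ^ p ^ k = 1 from congrArg Subtype.val hk, one_zpow]
      refine (h6.to_sup_of_normal_right' (ih h2) (zpowers_le.2 (mem_normalizer_fintype fun x hx =>
        V.normBy h1 _ (ev_mem_cl g List.mem_cons_self) x hx))).to_le (cl_le.2 fun w hw => ?_)
      exact (List.mem_cons.1 hw).elim (fun e => e ▸ mem_sup_left (mem_zpowers _)) fun h => mem_sup_right (ev_mem_cl g h)

/-- conjugate subgroup -/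
abbrev cj (h : G) (K : Subgroup G) : Subgroup G := K.map (MulAut.conj h).toMonoidHom

theorem mem_cj {h x : G} {K : Subgroup G} : x ∈ cj h K ↔ h⁻¹ * x * h ∈ K := by
  rw [cj, mem_map_equiv]; rfl

theorem card_cj (h : G) (K : Subgroup G) : Nat.card (cj h K) = Nat.card K :=
  card_map_of_injective (MulAut.conj h).injective

theorem cj_le {H K : Subgroup G} {h : G} (hh : h ∈ H) (hK : K ≤ H) : cj h K ≤ H := fun x hx => by
  simpa [mul_assoc] using H.mul_mem (H.mul_mem hh (hK (mem_cj.1 hx))) (H.inv_mem hh)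

theorem KInv.cj {K : Subgroup G} {Z : Set Ω} (hZ : KInv K Z) (h : G) : KInv (cj h K) (h • Z) := fun k hk x hx => by
  rw [Set.mem_smul_set_iff_inv_smul_mem] at hx ⊢
  simpa [mul_smul] using hZ _ (mem_cj.1 hk) _ hx

/-- every subgroup of `H` of order `m` has a conjugate containing the elements -/
def Seed (g : ℕ → G) (H : Subgroup G) (m : ℕ) (Y : List (List ℕ)) : Prop :=
  ∀ K ≤ H, Nat.card K = m → ∃ h ∈ H, Sub g Y (cj h K)

theorem seed_of_pgroup {H S : Subgroup G} [Finite H] {p k m : ℕ} [Fact p.Prime] (hS : IsPGroup p S) (hle : S ≤ H)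
    (hc : Nat.card H = k * m) (hk : ¬ p ∣ k) {Y : List (List ℕ)} (hY : Sub g Y S) : Seed g H m Y := fun K hK hm => by
  obtain ⟨P, hP⟩ := (hS.comap_subtype (K := H)).exists_le_sylow
  obtain ⟨Q⟩ : Nonempty (Sylow p (K.subgroupOf H)) := inferInstance
  have h1 := (K.subgroupOf H).index_mul_card
  rw [Nat.card_congr (subgroupOfEquivOfLe hK).toEquiv, hm, hc] at h1
  have h2 := Nat.eq_of_mul_eq_mul_right (Nat.pos_of_ne_zero fun e => Nat.card_pos.ne' (by rw [hc, e, mul_zero])) h1
  let Q' := (Q.isPGroup'.map (K.subgroupOf H).subtype).toSylow (by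
    rw [index_map_subtype, h2]; exact (Fact.out : p.Prime).not_dvd_mul Q.not_dvd_index hk)
  obtain ⟨h, e⟩ := exists_smul_eq H Q' P
  refine ⟨h, h.2, fun y hy => mem_cj.2 ?_⟩
  have h3 : (⟨_, hle (hY y hy)⟩ : H) ∈ (h • Q' : Sylow p H) := e ▸ hP (hY y hy)
  exact map_subtype_le (Q : Subgroup (K.subgroupOf H)) (mem_pointwise_smul_iff_inv_smul_mem.1 h3)

theorem sub_cl (ss : List ℕ) {Y : List (List ℕ)} (h : allL (allL fun u => decide (u ∈ ss)) Y = true) :
    Sub g Y (cl g ss) := fun y hy =>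
  evL_mem fun w hw => ev_mem_cl g (of_decide_eq_true (allL_sound (allL_sound h y hy) w hw))

end CfsgLib.SubCl
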