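import Mathlib
import Cfsg.Agent.Lib.SubCl.Orb

/-!
# Subgroups of given order fix a point: rules of a search tree
-/

set_option autoImplicit false

namespace CfsgLib.SubCl

open CfsgLib.Comput CfsgLib.Rank3 MulAction Subgroup
open scoped Pointwise

variable {G Ω : Type*} [Group G] [MulAction G Ω] {g : ℕ → G} {n : ℕ} {pt : ℕ → Ω} {step stT : ℕ → ℕ → ℕ}
  {H : Subgroup G} {m A x0 : ℕ} {T : Set Ω} {Y : List (List ℕ)}

/-- disjunction -/
noncomputable def bor (a b : Bool) : Bool := Bool.rec b true a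

theorem bor_eq_true {a b : Bool} : bor a b = true ↔ a = true ∨ b = true := by cases a <;> simp [bor]

/-- a word model from the images of a base -/
theorem wm_base {W : List Net} {k X : ℕ} {bs : List ℕ} (M : SM g n pt step)
    (h : ∀ m, Acts n pt (nth Net.nil W m) (g m)) (K : Subgroup G) (hK : ∀ m, g m ∈ K)
    (hf : ∀ x ∈ K, (∀ b ∈ bs, x • pt b = pt b) → x = 1)
    (hX : allL (fun b => band (Nat.ble (Nat.succ b) n) (allLt (fun j => Bool.rec true (Nat.beq j b)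
      (allLt (fun s => decide (tb X (Nat.add (Nat.mul s n) j) = tb X (Nat.add (Nat.mul s n) b))) k)) n)) bs = true) :
    WM g (stepT n k W) X := by
  refine ⟨⟨fun x a => a ∈ K ∧ TabSt n k pt X x a, ⟨K.one_mem, TabSt.one n k pt X⟩,
    fun m x a hx => ⟨K.mul_mem (hK m) hx.1, TabSt.step h X m x a hx.2⟩, ?_⟩⟩
  rintro x a b ⟨ha, f, h1, h2⟩ ⟨hb, f', h1', h2'⟩
  refine (inv_mul_eq_one.1 (hf _ (K.mul_mem (K.inv_mem ha) hb) fun c hc => ?_))
  obtain ⟨h3, h4⟩ := band_eq_true.1 (allL_sound hX c hc)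
  obtain ⟨i, hi, e⟩ : c ∈ f '' Set.Iio n := ((Set.finite_Iio n).injOn_iff_bijOn_of_mapsTo fun i hi => (h1 i hi).1).1
    (fun i hi j hj e => M.inj i hi j hj (by rw [← (h1 i hi).2, e, (h1 j hj).2])) |>.surjOn (Nat.le_of_ble_eq_true h3)
  have h5 := allLt_sound h4 _ (h1' i hi).1
  have h6 : ∀ k' ≤ k, allLt (fun s => decide (tb X (Nat.add (Nat.mul s n) (f' i)) = tb X (Nat.add (Nat.mul s n) c))) k'
      = true := fun k' => by
    induction k' with
    | zero => exact fun _ => rfl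
    | succ k' ih => exact fun hk => band_eq_true.2 ⟨decide_eq_true (by
        rw [tb_eq, tb_eq]; exact (h2' k' hk i hi).symm.trans (e ▸ h2 k' hk i hi)), ih (Nat.le_of_succ_le hk)⟩
  rw [h6 k le_rfl] at h5
  rw [mul_smul, inv_smul_eq_iff]
  exact (Nat.eq_of_beq_eq_true h5 ▸ (h1' i hi).2).trans (e ▸ (h1 i hi).2).symm

/-- `K` fixes a point of `T` -/
def Goal (K : Subgroup G) (T : Set Ω) : Prop := ∃ x ∈ T, ∀ k ∈ K, k • x = x

/-- the subgroups of order `m` containing the elements fix a point of `T` -/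
def PP (g : ℕ → G) (H : Subgroup G) (m : ℕ) (T : Set Ω) (Y : List (List ℕ)) : Prop :=
  ∀ K ≤ H, Nat.card K = m → Sub g Y K → Goal K T

theorem PP.cj (hP : PP g H m T Y) (hT : KInv H T) {K : Subgroup G} (hK : K ≤ H) (hm : Nat.card K = m) {h : G}
    (hh : h ∈ H) (hs : Sub g Y (cj h K)) : Goal K T := by
  obtain ⟨x, hx, e⟩ := hP _ (cj_le hh hK) ((card_cj h K).trans hm) hs
  exact ⟨_, hT _ (H.inv_mem hh) x hx, fun k hk => by
    conv_rhs => rw [← e (h * k * h⁻¹) (mem_cj.2 (by simpa [mul_assoc] using hk))]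
    simp [mul_smul]⟩

theorem Seed.goal (hS : Seed g H m Y) (hP : PP g H m T Y) (hT : KInv H T) (K : Subgroup G) (hK : K ≤ H)
    (hm : Nat.card K = m) : Goal K T := (hS K hK hm).elim fun _ h => hP.cj hT hK hm h.1 h.2

theorem seed_of_fix [Finite H] (hG : ∀ K ≤ H, Nat.card K = m → Goal K T) {c : Ω} (hT : ∀ x ∈ T, ∃ h ∈ H, h • c = x)
    (hc : Nat.card (H ⊓ stabilizer G c : Subgroup G) = m) (hY : Sub g Y (H ⊓ stabilizer G c)) : Seed g H m Y :=
  fun K hK hm => by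
    obtain ⟨_, hx, e⟩ := hG K hK hm
    obtain ⟨h, hh, rfl⟩ := hT _ hx
    have : Finite (H ⊓ stabilizer G c : Subgroup G) := Finite.of_injective _ (inclusion_injective inf_le_left)
    exact ⟨h⁻¹, H.inv_mem hh, eq_of_le_of_card_ge (H := cj h⁻¹ K) (K := H ⊓ stabilizer G c) (le_inf (cj_le (H.inv_mem hh) hK) fun x hx => by
      simpa [mul_smul] using e _ (mem_cj.1 hx)) (by rw [hc, card_cj, hm]) ▸ hY⟩

/-- conjugates of the elements `Y'` are products of the elements `Y` -/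
noncomputable def redOK (stT : ℕ → ℕ → ℕ) (x0 A : ℕ) (Y Y' : List (List ℕ)) (h : ℕ) (cs : List ℕ) : Bool :=
  band (inA A h) (band (Nat.beq cs.length Y'.length) (allL (fun e => Nat.beq (actL stT e.1 (act stT h x0))
    (act stT h (act (stepL stT Y) e.2 x0))) (Y'.zip cs)))

theorem PP.red (V : WM g stT x0) (hA : InA g A H) (hT : KInv H T) {Y' : List (List ℕ)} {h : ℕ} {cs : List ℕ}
    (hr : redOK stT x0 A Y Y' h cs = true) (hP : PP g H m T Y') : PP g H m T Y := fun K hK hm hs => by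
  obtain ⟨h1, h2⟩ := band_eq_true.1 hr
  obtain ⟨h2, h3⟩ := band_eq_true.1 h2
  refine hP.cj hT hK hm (ev_mem hA h1) fun y hy => mem_cj.2 ?_
  obtain ⟨c, hc⟩ := exists_mem_zip (Nat.eq_of_beq_eq_true h2) hy
  obtain ⟨St, h0, h4, h5⟩ := V.ex
  have h6 := actL_rel h4 y (act_rel h4 h h0)
  rw [Nat.eq_of_beq_eq_true (allL_sound h3 _ hc)] at h6
  have h7 := h5 _ _ _ h6 (act_rel h4 h (act_rel (g := gL g Y) (fun m _ _ => actL_rel h4 _) c h0))
  rw [mul_one, mul_one] at h7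
  rw [mul_assoc, h7, inv_mul_cancel_left]
  exact hs.ev c

/-- the possible orbit lengths -/
def Al (H : Subgroup G) (m : ℕ) (S : Set Ω) (al : ℕ) : Prop :=
  ∀ K ≤ H, Nat.card K = m → ∀ y ∈ S, al.testBit (orbit K y).ncard = true

theorem Al.land {S : Set Ω} {a b : ℕ} (h : Al H m S a) (h' : Al H m S b) : Al H m S (Nat.land a b) :=
  fun K hK hm y hy => (Nat.testBit_and a b _).trans (by rw [h K hK hm y hy, h' K hK hm y hy]; rfl)

theorem KInv.orbit_subset {S : Set Ω} (hS : KInv H S) {K : Subgroup G} (hK : K ≤ H) {y : Ω} (hy : y ∈ S) :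
    orbit K y ⊆ S := fun _ ⟨k, e⟩ => e ▸ hS _ (hK k.2) y hy

theorem al_div (M : SM g n pt step) {X h al : ℕ} (hX : KInv H (sem n pt X)) (hm : m ≠ 0)
    (hh : ∀ y ∈ sem n pt X, Nat.card (H ⊓ stabilizer G y : Subgroup G) ∣ h)
    (hc : allLt (fun s => Bool.rec true (tb al s) (band (Nat.beq (Nat.mod m s) 0) (Nat.beq (Nat.mod h (Nat.div m s)) 0)))
      (Nat.succ (pop n X)) = true) : Al H m (sem n pt X) al := fun K hK e y hy => by
  have h1 := allLt_sound hc _ (Nat.lt_succ_of_le (M.ncard_sem X ▸ Set.ncard_le_ncard (hX.orbit_subset hK hy)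
    (sem_finite _ _ _)))
  have h2 := e ▸ card_eq_ncard_orbit_mul K y
  have h3 : (orbit K y).ncard ≠ 0 := fun e => hm (by rw [h2, e, zero_mul])
  rwa [band_eq_true.2 ⟨Nat.beq_eq ▸ Nat.mod_eq_zero_of_dvd ⟨_, h2⟩, Nat.beq_eq ▸ Nat.mod_eq_zero_of_dvd
    ((Nat.div_eq_of_eq_mul_right (Nat.pos_of_ne_zero h3) h2).dvd.trans <|
      (card_dvd_of_le (inf_le_inf_right _ hK)).trans (hh y hy))⟩, tb_eq] at h1

theorem card_stab_dvd {c : Ω} {S : Set Ω} (hS : ∀ x ∈ S, ∃ h ∈ H, h • c = x) {s : ℕ}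
    (hc : Nat.card (H ⊓ stabilizer G c : Subgroup G) = s) : ∀ y ∈ S, Nat.card (H ⊓ stabilizer G y : Subgroup G) ∣ s :=
  fun y hy => by
    obtain ⟨h, hh, rfl⟩ := hS y hy
    rw [← hc, ← card_cj h⁻¹]
    exact card_dvd_of_le (le_inf (cj_le (H.inv_mem hh) inf_le_left) fun x hx => by
      simpa [mul_smul] using (mem_cj.1 hx).2)

theorem al_seed (M : SM g n pt step) (hS : Seed g H m Y) {X al : ℕ} (hX : KInv H (sem n pt X))
    (hk : parts step n Y n X (fun l => Nat.beq (dp l 1) al) = true) : Al H m (sem n pt X) al := fun K hK e y hy => by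
  obtain ⟨h, hh, hs⟩ := hS K hK e
  obtain ⟨l, h1, h2⟩ := parts_sound M hs hk
  have := dp_sound h1 (sem_finite _ _ _) ((kInv_orbit K y).cj h) (a := 1) (j := 0) rfl
  rwa [Nat.eq_of_beq_eq_true h2, zero_add, Set.inter_eq_left.2 (by
    rintro _ ⟨z, hz, rfl⟩; exact hX _ hh _ (hX.orbit_subset hK hy hz)), Set.ncard_smul_set] at this

/-- the orbit of `x` inside `X` is a point of `T` -/
noncomputable def orbOK (step : ℕ → ℕ → ℕ) (n : ℕ) (Y : List (List ℕ)) (x X al T : ℕ) : Bool :=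
  band (Nat.ble (Nat.succ x) n) (force (Nat.land X (orb step Y (Nat.shiftLeft 1 x))) fun O =>
    force (Nat.xor X O) fun R => parts step n Y n R fun l =>
      force (Nat.land (dp l (Nat.shiftLeft 1 (pop n O))) al) fun r => bor (Nat.beq r 0) (band (Nat.beq r 2) (tb T x)))

theorem orbOK_sound (M : SM g n pt step) {S : Set Ω} {x X al T : ℕ} (hal : Al H m S al) (hx : pt x ∈ S)
    (h : orbOK step n Y x X al T = true) {K : Subgroup G} (hK : K ≤ H) (hm : Nat.card K = m) (hs : Sub g Y K)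
    (hX : ∀ k ∈ K, k • pt x ∈ sem n pt X) : Goal K (sem n pt T) := by
  obtain ⟨h0, h⟩ := band_eq_true.1 h
  have h0 : x < n := Nat.le_of_ble_eq_true h0
  rw [force_eq, force_eq] at h
  obtain ⟨l, h1, h2⟩ := parts_sound M hs h
  have h3 := dp_sound h1 (sem_finite _ _ _) (kInv_orbit K (pt x)) 
    (a := 1 <<< pop n (Nat.land X (orb step Y (Nat.shiftLeft 1 x))))
    (j := pop n (Nat.land X (orb step Y (Nat.shiftLeft 1 x)))) (by simp [Nat.one_shiftLeft])
  have h4 : orbit K (pt x) ⊆ sem n pt X := fun _ ⟨k, e⟩ => e ▸ hX k k.2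
  have h5 : sem n pt (Nat.land X (orb step Y (Nat.shiftLeft 1 x))) ⊆ orbit K (pt x) := fun y hy => by
    obtain ⟨k, hk, z, hz, rfl⟩ := (orb_spec M hs _).2 y ((sem_land M _ _).le hy).2
    exact ⟨⟨k, hk⟩, congrArg _ ((sem_single pt h0).le hz).symm⟩
  rw [sem_rest M, ← Set.inter_sdiff_assoc, Set.inter_eq_left.2 h4, ← M.ncard_sem, add_comm,
    Set.ncard_sdiff_add_ncard_of_subset h5 ((sem_finite _ _ _).subset h4), M.ncard_sem] at h3
  have h6 : (Nat.land (dp l (Nat.shiftLeft 1 (pop n (Nat.land X (orb step Y (Nat.shiftLeft 1 x)))))) al).testBit _ = true :=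
    (Nat.testBit_and _ _ _).trans (Bool.and_eq_true_iff.2 ⟨h3, hal K hK hm _ hx⟩)
  rw [force_eq, bor_eq_true, band_eq_true] at h2
  rcases h2 with h2 | h2
  · exact absurd (Nat.eq_of_beq_eq_true h2 ▸ h6) (by simp)
  · rw [(Nat.eq_of_beq_eq_true h2.1 : _ = 2 ^ 1), Nat.testBit_two_pow, decide_eq_true_eq, eq_comm,
      Set.ncard_eq_one] at h6
    obtain ⟨z, hz⟩ := h6
    exact ⟨_, (M.mem_sem h0).2 (tb_eq T x ▸ h2.2), fun k hk => (hz.le (mem_orbit _ (⟨k, hk⟩ : K))).trans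
      (hz.le (mem_orbit_self _)).symm⟩

/-- a leaf of the tree -/
noncomputable def leaf (step : ℕ → ℕ → ℕ) (n T : ℕ) (ds : List (ℕ × ℕ)) (ex : List (List (List ℕ)))
    (Y : List (List ℕ)) (x i : ℕ) : Bool :=
  bor (decide (Y ∈ ex)) (band (tb (nth (0, 0) ds i).1 x) (orbOK step n Y x (nth (0, 0) ds i).1 (nth (0, 0) ds i).2 T))

theorem leaf_sound (M : SM g n pt step) {T : ℕ} {ds : List (ℕ × ℕ)} {ex : List (List (List ℕ))}
    (hd : ∀ d ∈ ds, KInv H (sem n pt d.1) ∧ Al H m (sem n pt d.1) d.2) (he : ∀ Y ∈ ex, PP g H m (sem n pt T) Y)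
    (Y : List (List ℕ)) (x i : ℕ) (h : leaf step n T ds ex Y x i = true) : PP g H m (sem n pt T) Y := by
  refine (bor_eq_true.1 h).elim (fun h => he Y (of_decide_eq_true h)) fun h K hK hm hs => ?_
  obtain ⟨h1, h2⟩ := band_eq_true.1 h
  rcases nth_mem_or (0, 0) ds i with h3 | h3
  · have h4 := (M.mem_sem (Nat.le_of_ble_eq_true (band_eq_true.1 h2).1)).2 (tb_eq _ x ▸ h1)
    exact orbOK_sound M (hd _ h3).2 h4 h2 hK hm hs fun k hk => (hd _ h3).1 k (hK hk) _ h4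
  · rw [h3, tb_eq] at h1
    simp at h1

theorem count_le (M : SM g n pt step) [Finite H] {p q : Ω} {X c : ℕ}
    (hc : Nat.card (H ⊓ stabilizer G p ⊓ stabilizer G q : Subgroup G) = c) {K : Subgroup G} (hK : K ≤ H)
    (h : ∀ k ∈ K, k • p ∈ sem n pt X ∧ k • q ∈ sem n pt X) : Nat.card K ≤ pop n X * (pop n X * c) := by
  have : Finite (H ⊓ stabilizer G p ⊓ stabilizer G q : Subgroup G) :=
    Finite.of_injective _ (inclusion_injective (inf_le_left.trans inf_le_left))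
  rw [card_eq_ncard_orbit_mul K p, card_eq_ncard_orbit_mul _ q, ← M.ncard_sem, ← hc]
  exact Nat.mul_le_mul (Set.ncard_le_ncard (fun _ ⟨k, e⟩ => e ▸ (h k k.2).1) (sem_finite _ _ _))
    (Nat.mul_le_mul (Set.ncard_le_ncard (fun _ ⟨k, e⟩ => e ▸ (h k k.2.1).2) (sem_finite _ _ _))
      (card_le_of_le (inf_le_inf_right _ (inf_le_inf_right _ hK))))

/-- the saturations of the sets `f a` cover `Z` -/
noncomputable def cover {α : Type} (step : ℕ → ℕ → ℕ) (Y : List (List ℕ)) (f : α → ℕ) (l : List α) : ℕ → Bool :=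
  List.rec (motive := fun _ => ℕ → Bool) (fun Z => Nat.beq Z 0)
    (fun a _ ih Z => force (Nat.xor Z (Nat.land Z (orb step Y (f a)))) ih) l

theorem cover_sound {α : Type} (M : SM g n pt step) {K : Subgroup G} (hs : Sub g Y K) {f : α → ℕ} {l : List α} {Z : ℕ}
    (h : cover step Y f l Z = true) {x : Ω} (hx : x ∈ sem n pt Z) :
    ∃ a ∈ l, ∃ k ∈ K, ∃ y ∈ sem n pt (f a), k • y = x := by
  induction l generalizing Z with
  | nil => exact absurd (Nat.eq_of_beq_eq_true h ▸ hx : x ∈ sem n pt 0) (by simp [sem_zero])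
  | cons a l ih =>
    by_cases e : x ∈ sem n pt (orb step Y (f a))
    · exact ⟨a, List.mem_cons_self, (orb_spec M hs _).2 x e⟩
    · exact (ih ((force_eq _ (cover step Y f l)).symm.trans h) ((sem_diff M _ _).ge ⟨hx, e⟩)).imp
        fun _ h => ⟨List.mem_cons_of_mem _ h.1, h.2⟩

/-- one-word lists -/
def sing (ys : List ℕ) : List (List ℕ) := ys.map fun y => [y]

theorem sub_sing {ys : List ℕ} {K : Subgroup G} : Sub g (sing ys) K ↔ cl g ys ≤ K := by
  simp [Sub, sing, cl_le, evL_one]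

/-- `(t, ns, [(u, v, x, i)])` -/
abbrev Kid : Type := ℕ × List (List ℕ) × List (ℕ × ℕ × ℕ × ℕ)

/-- test of a branch -/
noncomputable def kidOK (step stT : ℕ → ℕ → ℕ) (x0 A : ℕ) (ys Nw os : List ℕ) (P1 P2 Z2 X : ℕ)
    (lf : List (List ℕ) → ℕ → ℕ → Bool) (kd : Kid) : Bool :=
  force (act step kd.1 P1) fun Q => band (band (inA A kd.1) (band (allL (allL fun u => decide (u ∈ Nw)) kd.2.1)
    (allL (fun y => Nat.beq (actL step y Q) Q) kd.2.1)))
    (band (cover step kd.2.1 (fun s => actL step [kd.1, s.1] P2) kd.2.2 (act step kd.1 Z2))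
      (allL (fun s => band (band (inA A s.1) (Nat.beq (act step s.1 P1) P1))
        (bor (force (Nat.lor Q (actL step [kd.1, s.1] P2)) fun U => Nat.beq (Nat.land X U) U)
          (band (eqChk stT x0 ([kd.1, s.1, s.2.1], []))
            (lf (sing ys ++ os.map fun o => [kd.1, s.1, o, s.2.1]) s.2.2.1 s.2.2.2)))) kd.2.2))

theorem branch (M : SM g n pt step) (V : WM g stT x0) (hA : InA g A H) (hT : KInv H T) {ys Nw os : List ℕ}
    (hN : NormBy (cl g ys) (cl g Nw)) (hNH : cl g Nw ≤ H) (hos : cl g os ≤ cl g ys) {p1 p2 Z1 Z2 X : ℕ}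
    (hp1 : p1 < n) (hp2 : p2 < n) (hZ1 : ∀ h ∈ H, h • pt p1 ∈ sem n pt Z1)
    (hZ2 : ∀ h ∈ H, h • pt p1 = pt p1 → h • pt p2 ∈ sem n pt Z2)
    (hO : ∀ h ∈ H, h • pt p1 = pt p1 → h • pt p2 = pt p2 → ∀ x ∈ cl g os, h * x * h⁻¹ ∈ cl g os)
    (hX : ∀ K ≤ H, Nat.card K = m → Sub g (sing ys) K →
      (∀ k ∈ K, k • pt p1 ∈ sem n pt X ∧ k • pt p2 ∈ sem n pt X) → Goal K T)
    (hXc : closedB step Nw X = true) {lf : List (List ℕ) → ℕ → ℕ → Bool}
    (hl : ∀ Y a b, lf Y a b = true → PP g H m T Y) {kids : List Kid}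
    (hc : cover step (sing Nw) (fun kd : Kid => act step kd.1 (1 <<< p1)) kids Z1 = true)
    (hk : ∀ kd ∈ kids, kidOK step stT x0 A ys Nw os (1 <<< p1) (1 <<< p2) Z2 X lf kd = true) :
    PP g H m T (sing ys) := fun K hK hm hs => by
  refine by_contra fun hn => hn (hX K hK hm hs fun k hk' => by_contra fun hn' => ?_)
  obtain ⟨kd, h1, ν, hν, _, h2, e1⟩ := cover_sound M (sub_sing.2 le_rfl) hc (hZ1 k (hK hk'))
  rw [M.sem_act, sem_single pt hp1, Set.smul_set_singleton] at h2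
  obtain rfl := h2
  have h3 := hk kd h1
  rw [kidOK, force_eq, band_eq_true, band_eq_true, band_eq_true, band_eq_true] at h3
  obtain ⟨⟨h3, h4, h5⟩, h6, h7⟩ := h3
  have ht := ev_mem hA h3
  have hq : sem n pt (act step kd.1 (1 <<< p1)) = {ev g kd.1 • pt p1} := by
    rw [M.sem_act, sem_single pt hp1, Set.smul_set_singleton]
  obtain ⟨s, h8, μ, hμ, _, h9, e2⟩ := cover_sound M (K := cl g Nw ⊓ stabilizer G (ev g kd.1 • pt p1))
    (fun y hy => ⟨sub_cl Nw h4 y hy, Set.singleton_injective (by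
      rw [← Set.smul_set_singleton, ← hq, ← M.sem_actL, Nat.eq_of_beq_eq_true (allL_sound h5 y hy)])⟩) h6
    (x := ν⁻¹ • k • pt p2) (by
      rw [M.sem_act, Set.mem_smul_set_iff_inv_smul_mem, ← mul_smul, ← mul_smul]
      exact hZ2 _ (H.mul_mem (H.mul_mem (H.inv_mem ht) (H.inv_mem (hNH hν))) (hK hk')) (by
        rw [mul_smul, mul_smul, ← e1, inv_smul_smul, inv_smul_smul]))
  have hq' : sem n pt (actL step [kd.1, s.1] (1 <<< p2)) = {(ev g kd.1 * ev g s.1) • pt p2} := by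
    rw [M.sem_actL, sem_single pt hp2, Set.smul_set_singleton, evL_two]
  rw [hq'] at h9
  obtain rfl := h9
  obtain ⟨h9, h10⟩ := band_eq_true.1 (allL_sound h7 s h8)
  obtain ⟨h9, h11⟩ := band_eq_true.1 h9
  have hc := (cl g Nw).mul_mem hν hμ.1
  have e3 : k • pt p1 = (ν * μ) • ev g kd.1 • pt p1 := by rw [mul_smul, show μ • _ = _ from hμ.2, e1]
  have e4 : k • pt p2 = (ν * μ) • (ev g kd.1 * ev g s.1) • pt p2 := by rw [mul_smul, e2, smul_inv_smul]
  rcases bor_eq_true.1 h10 with h12 | h12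
  · rw [force_eq] at h12
    have h13 := (sem_land M _ _).symm.trans (congrArg (sem n pt) (Nat.eq_of_beq_eq_true h12))
    rw [Set.inter_eq_right, show Nat.lor _ _ = _ ||| _ from rfl, sem_lor, hq, hq'] at h13
    rw [← M.closed_sound hXc _ hc, e3, e4] at hn'
    exact hn' ⟨Set.smul_mem_smul_set (h13 (Or.inl rfl)), Set.smul_mem_smul_set (h13 (Or.inr rfl))⟩
  · obtain ⟨h12, h13⟩ := band_eq_true.1 h12
    have h14 : ev g kd.1 * ev g s.1 * ev g s.2.1 = 1 := (evL_three g _ _ _).symm.trans (V.holds h12)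
    refine hn ((hl _ _ _ h13).cj hT hK hm (H.inv_mem (hNH hc)) fun y hy => mem_cj.2 ?_)
    rw [inv_inv]
    rcases List.mem_append.1 hy with hy | hy
    · exact sub_sing.1 hs (hN _ hc _ (sub_sing.2 le_rfl y hy))
    · obtain ⟨o, ho, rfl⟩ := List.mem_map.1 hy
      have := K.mul_mem (K.mul_mem hk' (sub_sing.1 hs (hos (hO (k⁻¹ * (ν * μ) * (ev g kd.1 * ev g s.1))
        (H.mul_mem (H.mul_mem (H.inv_mem (hK hk')) (hNH hc)) (H.mul_mem ht (ev_mem hA h9)))
        (by rw [mul_smul, mul_smul, mul_smul (ev g kd.1), M.smul_pt hp1 hp1 h11, ← e3, inv_smul_smul])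
        (by rw [mul_smul, mul_smul, ← e4, inv_smul_smul]) _ (ev_mem_cl g ho))))) (K.inv_mem hk')
      simpa [evL, eq_inv_of_mul_eq_one_right h14, mul_assoc] using this

end CfsgLib.SubCl
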