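import Mathlib
import Cfsg.Agent.Lib.SubCl.Tree

/-!
# A subgroup of index not divisible by `4` contains a conjugate of the squares of a `2`-subgroup
-/

set_option autoImplicit false

namespace CfsgLib.SubCl

open CfsgLib.Comput MulAction Subgroup

theorem exists_sq_fix {P X : Type*} [Group P] [MulAction P X] [Finite X] (hP : IsPGroup 2 P) (hX : ¬ 4 ∣ Nat.card X) :
    ∃ x : X, ∀ a : P, (a * a) • x = x := by
  classical
  by_contra! h
  refine hX ?_
  have := Fintype.ofFinite (orbitRel.Quotient P X)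
  rw [Nat.card_congr (selfEquivSigmaOrbits P X), Nat.card_sigma]
  refine Finset.dvd_sum fun ω _ => ?_
  obtain ⟨a, ha⟩ := h ω.out
  have : Fact (Nat.Prime 2) := ⟨Nat.prime_two⟩
  obtain ⟨j, hj⟩ := hP.card_orbit ω.out
  have e := index_stabilizer P ω.out
  rw [← Nat.card_coe_set_eq, hj] at e
  rw [hj]
  rcases j with _ | _ | j
  · exact absurd (show a * a ∈ stabilizer P ω.out from index_eq_one.1 e ▸ mem_top _) ha
  · exact absurd (mul_self_mem_of_index_two e a) ha
  · exact ⟨2 ^ j, by ring⟩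

theorem seed_of_sq {G : Type*} [Group G] {g : ℕ → G} {H S : Subgroup G} [Finite H] {k m : ℕ} (hS : IsPGroup 2 S)
    (hle : S ≤ H) (hc : Nat.card H = k * m) (hk : ¬ 4 ∣ k) {Y : List (List ℕ)} (hY : Sub g Y S) :
    Seed g H m (Y.map fun y => y ++ y) := fun K hK hm => by
  have h1 := (K.subgroupOf H).index_mul_card
  rw [Nat.card_congr (subgroupOfEquivOfLe hK).toEquiv, hm, hc] at h1
  have h2 := Nat.eq_of_mul_eq_mul_right (Nat.pos_of_ne_zero fun e => Nat.card_pos.ne' (by rw [hc, e, mul_zero])) h1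
  obtain ⟨x, hx⟩ := exists_sq_fix (X := H ⧸ K.subgroupOf H) (hS.comap_subtype (K := H)) (by rwa [← h2] at hk)
  obtain ⟨h, rfl⟩ := QuotientGroup.mk_surjective x
  refine ⟨h, h.2, fun y hy => mem_cj.2 ?_⟩
  obtain ⟨z, hz, rfl⟩ := List.mem_map.1 hy
  have := QuotientGroup.eq.1 (hx ⟨⟨_, hle (hY z hz)⟩, hY z hz⟩).symm
  rw [evL_append, mul_assoc]
  exact this

end CfsgLib.SubCl
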